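import Mathlib
import Cfsg.Agent.H110.Gs.SpChain
import Cfsg.Agent.H915.Gs.SL2W

/-!
# S4327, symplectic groups: the start from an opposite pair (helper110, for helper914)

* `psi h : SL(2, F) →* Sp_2m(F)` for a hyperbolic pair `(x, y)`, `h : f x y = 1`; `psi_u`, `psi_l`;
* `conj_psi` : `a (ψ (u t)) = ψ (l (c * φ t))` if `y` is proportional to `g x`;
* `T_W_one_le` : `T (W 1)` is conjugate into the range;
* `start_good`.
-/

set_option autoImplicit false
set_option maxHeartbeats 400000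

namespace Cfsg.Agent.H110.Gs

open Cfsg Cfsg.Agent.H915.Gs Cfsg.Agent.H914.Gs
open Cfsg.Agent.ClassicalGeometry.SympBasic Cfsg.Agent.ClassicalGeometry.SympSiegel
  Cfsg.Agent.ClassicalGeometry.SympAutSemi
open Matrix
open Cfsg.Agent.LieClassical.SLTwoUnipotent (u l)

variable {F : Type*} [Field F] {m : ℕ}

local notation "V" => (Fin m ⊕ Fin m → F)
local notation "G" => Matrix.symplecticGroup (Fin m) F
local notation "f" => sympForm m F

/-- the action of a `2 × 2` matrix on the plane `⟨x, y⟩`, trivial on the perpendicular space -/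
def psiLin (x y : Fin m ⊕ Fin m → F) (A : Matrix (Fin 2) (Fin 2) F) :
    (Fin m ⊕ Fin m → F) →ₗ[F] (Fin m ⊕ Fin m → F) where
  toFun v := v + sympForm m F v y • ((A 0 0 - 1) • x + A 1 0 • y) - sympForm m F v x • (A 0 1 • x + (A 1 1 - 1) • y)
  map_add' v w := by
    simp only [sympForm_add_left]
    module
  map_smul' c v := by
    simp only [sympForm_smul_left, RingHom.id_apply]
    module

theorem psiLin_apply (x y v : V) (A : Matrix (Fin 2) (Fin 2) F) :
    psiLin x y A v = v + f v y • ((A 0 0 - 1) • x + A 1 0 • y) - f v x • (A 0 1 • x + (A 1 1 - 1) • y) := rfl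

theorem psiLin_form {x y : V} (h : f x y = 1) {A : Matrix (Fin 2) (Fin 2) F} (hA : A.det = 1) (v w : V) :
    f (psiLin x y A v) (psiLin x y A w) = f v w := by
  have h' : f y x = -1 := by rw [sympForm_swap, h]
  rw [Matrix.det_fin_two] at hA
  simp only [psiLin_apply, sympForm_add_left, sympForm_add_right, sympForm_sub_left, sympForm_sub_right,
    sympForm_smul_left, sympForm_smul_right, sympForm_self, h, h', sympForm_swap x w, sympForm_swap y w]
  linear_combination (f v y * f w x * (-1) + f v x * f w y) * hA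

/-- `SL(2, F) → Sp_2m(F)` for a hyperbolic pair -/
def psi {x y : Fin m ⊕ Fin m → F} (h : sympForm m F x y = 1) :
    SpecialLinearGroup (Fin 2) F →* Matrix.symplecticGroup (Fin m) F :=
  MonoidHom.mk' (fun A => ofIso (psiLin x y A.1) (psiLin_form h A.2)) (by
    intro A B
    have h' : sympForm m F y x = -1 := by rw [sympForm_swap, h]
    have hAB : ∀ i j, (A * B).1 i j = A.1 i 0 * B.1 0 j + A.1 i 1 * B.1 1 j := by
      intro i j
      change (A.1 * B.1) i j = _
      rw [Matrix.mul_apply, Fin.sum_univ_two]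
    apply ext_smul
    intro v
    rw [mul_smul, ofIso_smul, ofIso_smul, ofIso_smul]
    simp only [psiLin_apply, sympForm_add_left, sympForm_sub_left, sympForm_smul_left, sympForm_self, h, h', hAB]
    module)

theorem psi_smul {x y : V} (h : f x y = 1) (A : SpecialLinearGroup (Fin 2) F) (v : V) :
    psi h A • v = v + f v y • ((A.1 0 0 - 1) • x + A.1 1 0 • y) - f v x • (A.1 0 1 • x + (A.1 1 1 - 1) • y) := by
  change ofIso (psiLin x y A.1) (psiLin_form h A.2) • v = _
  rw [ofIso_smul]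
  rfl

theorem psi_u {x y : V} (h : f x y = 1) (t : F) : psi h (u t) = transv x (-t) := by
  apply ext_smul
  intro v
  rw [psi_smul, transv_smul]
  simp only [u, Matrix.of_apply, Matrix.cons_val', Matrix.cons_val_zero, Matrix.cons_val_one,
    Matrix.cons_val_fin_one]
  module

theorem psi_l {x y : V} (h : f x y = 1) (t : F) : psi h (l t) = transv y t := by
  apply ext_smul
  intro v
  rw [psi_smul, transv_smul]
  simp only [l, Matrix.of_apply, Matrix.cons_val', Matrix.cons_val_zero, Matrix.cons_val_one,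
    Matrix.cons_val_fin_one]
  module

/-- the normalised partner of `v₀` -/
theorem form_partner {v₀ w : V} (h₀ : f v₀ w ≠ 0) : f v₀ ((f v₀ w)⁻¹ • w) = 1 := by
  rw [sympForm_smul_right, inv_mul_cancel₀ h₀]

/-- **the opposite pair** `X_{v₀}, a X_{v₀} = X_{g v₀}` -/
theorem conj_psi {g : semiSim m F} {φ : F ≃+* F} {lam : F} (hl : lam ≠ 0) (hg : IsSemi g.1 φ lam) {v₀ : V}
    (h₀ : f v₀ (g.1 v₀) ≠ 0) (t : F) :
    conjHom m F g (psi (form_partner h₀) (u t)) =
      psi (form_partner h₀) (l (-(f v₀ (g.1 v₀)) ^ 2 * lam⁻¹ * φ t)) := by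
  rw [psi_u, psi_l, conjHom_transv g hl hg, transv_smul_vec, map_neg]
  congr 1
  field_simp

theorem psi_range_le {x y : V} (h : f x y = 1) : T ({x, y} : Set V) ≤ (psi h).range := by
  rw [T_le]
  rintro v (rfl | hv) c
  · refine ⟨u (-c), ?_⟩
    rw [psi_u, neg_neg]
  · rw [Set.mem_singleton_iff.1 hv]
    exact ⟨l c, psi_l h c⟩

/-- two opposite root groups generate all root groups of the plane -/
theorem Del.pair {J : Subgroup G} {x y : V} (hx : Del J x) (hy : Del J y) (h : f x y ≠ 0) (a b : F) :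
    Del J (a • x + b • y) := by
  by_cases ha : a = 0
  · rw [ha, zero_smul, zero_add]
    exact hy.smul b
  · have h1 := (hx.smul a).add hy (by rw [sympForm_smul_left]; exact mul_ne_zero ha h) b
    exact h1

theorem W_one_le (hm : 0 < m) {J : Subgroup G} (h : T ({e ⟨0, hm⟩, e' ⟨0, hm⟩} : Set V) ≤ J) :
    T (W m F 1 : Set V) ≤ J := by
  rw [T_le] at h ⊢
  intro v hv
  obtain ⟨w, hw, hvw⟩ := W_succ hm hv
  have hw0 : w = 0 := by
    funext i
    rcases i with i | i
    · exact (hw i (Nat.zero_le _)).1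
    · exact (hw i (Nat.zero_le _)).2
  rw [hvw, hw0, zero_add]
  have h1 : Del J (e ⟨0, hm⟩) := h _ (Or.inl rfl)
  have h2 : Del J (e' ⟨0, hm⟩) := h _ (Or.inr rfl)
  exact h1.pair h2 (by rw [form_e_e']; exact one_ne_zero) _ _

/-- from `ψ.range` to `T (W 1)` -/
theorem reach_W_one (hm : 1 ≤ m) {a : MulAut G} {k : ℕ} {x y : V} (h : f x y = 1) (hR : Reach a k (psi h).range) :
    Reach a k (T (W m F 1 : Set V)) := by
  obtain ⟨s, hs1, hs2⟩ := witt_pair (linInd_of_form (u := x) (v := y) (by rw [h]; exact one_ne_zero))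
    (linInd_of_form (u := e ⟨0, hm⟩) (v := e' ⟨0, hm⟩) (by rw [form_e_e']; exact one_ne_zero))
    (by rw [h, form_e_e'])
  refine ((hR.sub (psi_range_le h)).conj s).sub (W_one_le hm ?_)
  rw [cj_T, Set.image_pair, hs1, hs2]

/-- STARTG: linear g with an opposite pair, q ≥ 4 -/
theorem start_good [Finite F] (hm : 1 ≤ m) (hF : 4 ≤ Nat.card F) {g : semiSim m F} {l : F} (hl : l ≠ 0)
    (hg : IsSemi g.1 (RingEquiv.refl F) l) {v₀ : V} (h₀ : f v₀ (g.1 v₀) ≠ 0) :
    Reach (conjHom m F g) 4 (T (W m F 1 : Set V)) ∧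
      ((Nat.card F ≠ 5 ∨ IsSquare l) → Reach (conjHom m F g) 3 (T (W m F 1 : Set V))) := by
  let _ : Fintype F := Fintype.ofFinite F
  rw [Nat.card_eq_fintype_card] at hF ⊢
  have hc : -(f v₀ (g.1 v₀)) ^ 2 * l⁻¹ ≠ 0 :=
    mul_ne_zero (neg_ne_zero.2 (pow_ne_zero 2 h₀)) (inv_ne_zero hl)
  have hψ := conj_psi hl hg h₀
  refine ⟨reach_W_one hm _ (sl2w_three' (σ := RingEquiv.refl F) hF hc hψ (n := 1) odd_one (pow_one _)).reach,
    fun h5 => reach_W_one hm _ (sl2w_odd (σ := RingEquiv.refl F) hF hc hψ (n := 1) odd_one (pow_one _) ?_).reach⟩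
  intro h
  have hsq : IsSquare l := h5.resolve_left fun h' => h' h
  have h1 : IsSquare (-1 : F) := by
    rw [FiniteField.isSquare_neg_one_iff, h]
    norm_num
  have h2 : -(f v₀ (g.1 v₀)) ^ 2 * l⁻¹ = (-1) * (f v₀ (g.1 v₀)) ^ 2 * l⁻¹ := by ring
  rw [h2]
  exact (h1.mul (IsSquare.sq _)).mul (IsSquare.inv hsq)

end Cfsg.Agent.H110.Gs
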