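import Mathlib
import Cfsg.Agent.H915.Gs.SL2W
import Cfsg.Agent.S0801

/-!
# S4327: conjugates of one transvection generate `SL_2(q)` (helper110, for helper100 and helper445)

`tr_gen`: `2` conjugates of `u c` for `q = 2`, `4` for `q` even, `3` for `q` odd.
-/

set_option autoImplicit false

namespace Cfsg.Agent.H110.Gs

open Matrix
open Cfsg.Agent.LieClassical.SLTwoUnipotent

section

variable {F : Type*} [Field F]

theorem det_d {x : F} (hx : x ≠ 0) : (!![x, 0; 0, x⁻¹] : Matrix (Fin 2) (Fin 2) F).det = 1 := by
  rw [Matrix.det_fin_two_of, mul_inv_cancel₀ hx]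
  ring

theorem det_e {x : F} (hx : x ≠ 0) : (!![0, -x⁻¹; x, 0] : Matrix (Fin 2) (Fin 2) F).det = 1 := by
  rw [Matrix.det_fin_two_of]
  linear_combination inv_mul_cancel₀ hx

theorem exists_sl {M : Matrix (Fin 2) (Fin 2) F} (h : M.det = 1) :
    ∃ g : SpecialLinearGroup (Fin 2) F, (g : Matrix (Fin 2) (Fin 2) F) = M := ⟨⟨M, h⟩, rfl⟩

theorem conj_u_sq (c : F) {x : F} (hx : x ≠ 0) : ∃ g : SpecialLinearGroup (Fin 2) F, g * u c * g⁻¹ = u (c * x ^ 2) := by
  obtain ⟨g, hg⟩ := exists_sl (det_d hx)
  refine ⟨g, ?_⟩
  rw [mul_inv_eq_iff_eq_mul]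
  apply ext_coe
  rw [coe_mul, coe_mul, coe_u, coe_u, hg]
  ext i j
  fin_cases i <;> fin_cases j <;> simp [Matrix.mul_apply, Fin.sum_univ_two]
  field_simp

theorem conj_l_sq (c : F) {x : F} (hx : x ≠ 0) : ∃ g : SpecialLinearGroup (Fin 2) F, g * u c * g⁻¹ = l (-c * x ^ 2) := by
  obtain ⟨g, hg⟩ := exists_sl (det_e hx)
  refine ⟨g, ?_⟩
  rw [mul_inv_eq_iff_eq_mul]
  apply ext_coe
  rw [coe_mul, coe_mul, coe_u, coe_l, hg]
  ext i j
  fin_cases i <;> fin_cases j <;> simp [Matrix.mul_apply, Fin.sum_univ_two]
  field_simp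

theorem det_dil {s : F} (hs : s ≠ 0) {a b c d : F} (h : a * d - b * c = 1) :
    (!![a, s * b; s⁻¹ * c, d] : Matrix (Fin 2) (Fin 2) F).det = 1 := by
  rw [Matrix.det_fin_two_of]
  linear_combination h - b * c * mul_inv_cancel₀ hs

theorem det_sl (A : SpecialLinearGroup (Fin 2) F) : A.1 0 0 * A.1 1 1 - A.1 0 1 * A.1 1 0 = 1 := by
  rw [← Matrix.det_fin_two]
  exact A.2

/-- conjugation by `diag(s, 1)`, the function -/
def dilF (s : F) (hs : s ≠ 0) (A : SpecialLinearGroup (Fin 2) F) : SpecialLinearGroup (Fin 2) F :=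
  ⟨!![A.1 0 0, s * A.1 0 1; s⁻¹ * A.1 1 0, A.1 1 1], det_dil hs (det_sl A)⟩

theorem coe_dilF (s : F) (hs : s ≠ 0) (A : SpecialLinearGroup (Fin 2) F) :
    (dilF s hs A : Matrix (Fin 2) (Fin 2) F) = !![A.1 0 0, s * A.1 0 1; s⁻¹ * A.1 1 0, A.1 1 1] := rfl

/-- conjugation by `diag(s, 1)` -/
def dil (s : F) (hs : s ≠ 0) : SpecialLinearGroup (Fin 2) F →* SpecialLinearGroup (Fin 2) F :=
  MonoidHom.mk' (dilF s hs) (by
    intro A B
    apply ext_coe
    rw [coe_mul, coe_dilF, coe_dilF, coe_dilF]
    have hAB : ∀ i j, (A * B).1 i j = A.1 i 0 * B.1 0 j + A.1 i 1 * B.1 1 j := by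
      intro i j
      change (A.1 * B.1) i j = _
      rw [Matrix.mul_apply, Fin.sum_univ_two]
    ext i j
    fin_cases i <;> fin_cases j <;> simp [hAB, Matrix.mul_apply, Fin.sum_univ_two] <;> field_simp)

theorem coe_dil (s : F) (hs : s ≠ 0) (A : SpecialLinearGroup (Fin 2) F) :
    (dil s hs A : Matrix (Fin 2) (Fin 2) F) = !![A.1 0 0, s * A.1 0 1; s⁻¹ * A.1 1 0, A.1 1 1] := rfl

theorem dil_u (s : F) (hs : s ≠ 0) (x : F) : dil s hs (u x) = u (s * x) := by
  apply ext_coe
  rw [coe_dil, coe_u]
  simp [u]

theorem dil_l (s : F) (hs : s ≠ 0) (x : F) : dil s hs (l x) = l (s⁻¹ * x) := by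
  apply ext_coe
  rw [coe_dil, coe_l]
  simp [l]

theorem dil_injective (s : F) (hs : s ≠ 0) : Function.Injective (dil s hs) := by
  intro A B h
  have h1 : ∀ i j, (dil s hs A).1 i j = (dil s hs B).1 i j := fun i j => by rw [h]
  have h00 := h1 0 0
  have h01 := h1 0 1
  have h10 := h1 1 0
  have h11 := h1 1 1
  simp only [coe_dil, Matrix.of_apply, Matrix.cons_val', Matrix.cons_val_zero, Matrix.cons_val_one,
    Matrix.cons_val_fin_one] at h00 h01 h10 h11
  apply ext_coe
  ext i j
  fin_cases i <;> fin_cases j
  · exact h00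
  · exact mul_left_cancel₀ hs h01
  · exact mul_left_cancel₀ (inv_ne_zero hs) h10
  · exact h11

/-- all `u x` and one further element -/
theorem top_of_u {H : Subgroup (SpecialLinearGroup (Fin 2) F)} (hu : ∀ x, u x ∈ H) {c : F} (hc : c ≠ 0) (hl : l c ∈ H) :
    H = ⊤ := by
  refine upperUnipSL_sup_conj_eq_top (l c) ?_ H ?_ fun x => mul_mem (mul_mem hl (hu x)) (inv_mem hl)
  · rw [coe_l]
    simpa using hc
  · intro g hg
    rw [eq_u_of_mem_upperUnipSL hg]
    exact hu _

end

section

variable {F : Type*} [Field F] [Fintype F]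

/-- a primitive element: `-ζ²` generates the field, `q` odd -/
theorem closure_neg_sq (h2 : (2 : F) ≠ 0) {z : Fˣ} (hz : ∀ x, x ∈ Subgroup.zpowers z) :
    Subfield.closure ({-(z : F) ^ 2} : Set F) = ⊤ := by
  set K := Subfield.closure ({-(z : F) ^ 2} : Set F) with hK
  have h1 : (z : F) ^ 2 ∈ K := by
    have := Subfield.subset_closure (Set.mem_singleton (-(z : F) ^ 2))
    have h3 := K.neg_mem this
    rwa [neg_neg] at h3
  have hsq : ∀ a : F, a ^ 2 ∈ K := by
    intro a
    by_cases ha : a = 0
    · rw [ha, zero_pow two_ne_zero]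
      exact K.zero_mem
    obtain ⟨k, hk⟩ := Subgroup.mem_zpowers_iff.1 (hz (Units.mk0 a ha))
    have h3 : a = (z : F) ^ k := by
      have := congrArg Units.val hk
      rw [Units.val_zpow_eq_zpow_val, Units.val_mk0] at this
      exact this.symm
    have h4 : a ^ 2 = ((z : F) ^ 2) ^ k := by
      rw [h3, ← zpow_natCast, ← zpow_natCast, ← _root_.zpow_mul, ← _root_.zpow_mul, mul_comm]
    rw [h4]
    exact zpow_mem h1 k
  rw [eq_top_iff]
  intro x _
  have hodd : Fintype.card F % 2 = 1 := by
    rcases Nat.mod_two_eq_zero_or_one (Fintype.card F) with h | h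
    · exfalso
      apply h2
      have h3 : ringChar F = 2 := by
        rw [← FiniteField.even_card_iff_char_two] at *
        exact h
      have := ringChar.Nat.cast_ringChar (R := F)
      rw [h3] at this
      exact_mod_cast this
    · exact h
  obtain ⟨a, b, hab⟩ := FiniteField.exists_root_sum_quadratic (R := F) (f := Polynomial.X ^ 2)
    (g := Polynomial.X ^ 2 - Polynomial.C x) (Polynomial.degree_X_pow 2)
    (Polynomial.degree_X_pow_sub_C (by norm_num) x) hodd
  simp only [Polynomial.eval_pow, Polynomial.eval_X, Polynomial.eval_sub, Polynomial.eval_C] at hab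
  have h3 : x = a ^ 2 + b ^ 2 := by linear_combination -hab
  rw [h3]
  exact K.add_mem (hsq a) (hsq b)

theorem card_eq_two_or (h2 : (2 : F) = 0) : Fintype.card F = 2 ∨ (4 ≤ Fintype.card F ∧ Even (Fintype.card F)) := by
  have h3 : ringChar F = 2 := by
    have h4 : ringChar F ∣ 2 := ringChar.dvd (by exact_mod_cast h2)
    rcases (Nat.dvd_prime Nat.prime_two).1 h4 with h | h
    · exact absurd h (CharP.ringChar_ne_one)
    · exact h
  have h5 : Fintype.card F % 2 = 0 := FiniteField.even_card_iff_char_two.1 h3
  have h6 : 1 < Fintype.card F := Fintype.one_lt_card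
  rw [Nat.even_iff]
  omega

theorem tr_gen {F : Type*} [Field F] [Fintype F] {c : F} (hc : c ≠ 0) :
    ∃ (N : ℕ) (g : Fin N → SpecialLinearGroup (Fin 2) F),
      Subgroup.closure (Set.range fun i => g i * u c * (g i)⁻¹) = ⊤ ∧ (Fintype.card F = 2 → N ≤ 2) ∧
        ((2 : F) = 0 → N ≤ 4) ∧ N ≤ 4 ∧ ((2 : F) ≠ 0 → N ≤ 3) := by
  classical
  by_cases h2 : (2 : F) = 0
  · rcases card_eq_two_or h2 with hq | ⟨h4, hev⟩
    · -- `q = 2`
      obtain ⟨g, hg⟩ := conj_l_sq c (x := 1) one_ne_zero
      refine ⟨2, ![1, g], ?_, fun _ => le_rfl, fun _ => by norm_num, by norm_num, fun h => absurd h2 h⟩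
      have hF : ∀ x : F, x = 0 ∨ x = c := by
        intro x
        by_contra hcon
        push Not at hcon
        have h3 : ({0, c, x} : Finset F).card ≤ Fintype.card F := Finset.card_le_univ _
        rw [Finset.card_insert_of_notMem (by simp [hc.symm, hcon.1.symm]),
          Finset.card_insert_of_notMem (by simp [hcon.2.symm]), Finset.card_singleton, hq] at h3
        omega
      have m1 : u c ∈ Subgroup.closure (Set.range fun i => (![1, g] : Fin 2 → _) i * u c * ((![1, g] : Fin 2 → _) i)⁻¹) :=
        Subgroup.subset_closure ⟨0, by simp⟩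
      have m2 : l (-c * 1 ^ 2) ∈
          Subgroup.closure (Set.range fun i => (![1, g] : Fin 2 → _) i * u c * ((![1, g] : Fin 2 → _) i)⁻¹) := by
        refine Subgroup.subset_closure ⟨1, ?_⟩
        rw [← hg]
        simp
      refine top_of_u (fun x => ?_) (c := -c * 1 ^ 2) (by simpa using hc) m2
      rcases hF x with rfl | rfl
      · rw [u_zero]
        exact one_mem _
      · exact m1
    · -- `q ≥ 4` even
      obtain ⟨s, t, hst⟩ := Cfsg.Agent.H915.Gs.w_gen h4 (e := (1 : F)) one_ne_zero (RingEquiv.refl F) (n := 1) odd_one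
        (pow_one _) (Or.inl hev)
      have hroot : ∀ y : F, ∃ x, y = c * x ^ 2 := by
        intro y
        have h3 : ringChar F = 2 := by
          have h4 : ringChar F ∣ 2 := ringChar.dvd (by exact_mod_cast h2)
          rcases (Nat.dvd_prime Nat.prime_two).1 h4 with h | h
          · exact absurd h (CharP.ringChar_ne_one)
          · exact h
        obtain ⟨x, hx⟩ := FiniteField.isSquare_of_char_two h3 (y / c)
        exact ⟨x, by rw [sq, ← hx]; field_simp⟩
      have hneg : ∀ y : F, -y = y := fun y => by linear_combination (-y) * h2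
      have hu : ∀ y : F, ∃ g : SpecialLinearGroup (Fin 2) F, u y ∈ Subgroup.zpowers (g * u c * g⁻¹) := by
        intro y
        obtain ⟨x, rfl⟩ := hroot y
        by_cases hx : x = 0
        · refine ⟨1, ?_⟩
          rw [hx, zero_pow two_ne_zero, mul_zero, u_zero]
          exact one_mem _
        · obtain ⟨g, hg⟩ := conj_u_sq c hx
          exact ⟨g, by rw [hg]; exact Subgroup.mem_zpowers _⟩
      have hl : ∀ y : F, ∃ g : SpecialLinearGroup (Fin 2) F, l y ∈ Subgroup.zpowers (g * u c * g⁻¹) := by
        intro y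
        obtain ⟨x, rfl⟩ := hroot y
        by_cases hx : x = 0
        · refine ⟨1, ?_⟩
          rw [hx, zero_pow two_ne_zero, mul_zero, l_zero]
          exact one_mem _
        · obtain ⟨g, hg⟩ := conj_l_sq c hx
          rw [hneg] at hg
          exact ⟨g, by rw [hg]; exact Subgroup.mem_zpowers _⟩
      obtain ⟨g1, h1⟩ := hu s
      obtain ⟨g2, h2'⟩ := hl s
      obtain ⟨g3, h3⟩ := hu t
      obtain ⟨g4, h4'⟩ := hl t
      refine ⟨4, ![g1, g2, g3, g4], ?_, fun h => by omega, fun _ => le_rfl, le_rfl, fun h => absurd h2 h⟩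
      rw [eq_top_iff, ← hst, Subgroup.closure_le]
      have key : ∀ i : Fin 4, ∀ y, y ∈ Subgroup.zpowers ((![g1, g2, g3, g4] : Fin 4 → _) i * u c *
          ((![g1, g2, g3, g4] : Fin 4 → _) i)⁻¹) →
          y ∈ Subgroup.closure (Set.range fun i => (![g1, g2, g3, g4] : Fin 4 → _) i * u c *
            ((![g1, g2, g3, g4] : Fin 4 → _) i)⁻¹) := by
        intro i y hy
        have hi : (![g1, g2, g3, g4] : Fin 4 → _) i * u c * ((![g1, g2, g3, g4] : Fin 4 → _) i)⁻¹ ∈
            Subgroup.closure (Set.range fun i => (![g1, g2, g3, g4] : Fin 4 → _) i * u c *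
              ((![g1, g2, g3, g4] : Fin 4 → _) i)⁻¹) := Subgroup.subset_closure (Set.mem_range_self i)
        exact (Subgroup.zpowers_le.2 hi) hy
      have hw : ∀ s : F, Cfsg.Agent.H915.Gs.w 1 (RingEquiv.refl F) s = u s * l s := by
        intro s
        unfold Cfsg.Agent.H915.Gs.w
        rw [one_mul]
        rfl
      intro y hy
      rcases hy with hy | hy
      · rw [hy, hw]
        exact mul_mem (key 0 _ h1) (key 1 _ h2')
      · rw [Set.mem_singleton_iff.1 hy, hw]
        exact mul_mem (key 2 _ h3) (key 3 _ h4')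
  · -- odd `q`
    have hq2 : Fintype.card F ≠ 2 := by
      intro h
      apply h2
      have := FiniteField.cast_card_eq_zero F
      rw [h] at this
      exact_mod_cast this
    obtain ⟨z, hz⟩ := IsCyclic.exists_generator (α := Fˣ)
    have hz0 : (z : F) ≠ 0 := z.ne_zero
    have hlam : -(z : F) ^ 2 ≠ 0 := neg_ne_zero.2 (pow_ne_zero 2 hz0)
    rcases Cfsg.Agent.S0801.result h2 (-(z : F) ^ 2) hlam (closure_neg_sq h2 hz) with ⟨htop, -⟩ | ⟨h9, h91, -⟩
    · -- two elements
      have hy : (z : F) / c ≠ 0 := div_ne_zero hz0 hc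
      have hs : -(z : F) ^ 2 / c ≠ 0 := div_ne_zero hlam hc
      obtain ⟨g, hg⟩ := conj_l_sq c hy
      refine ⟨2, ![1, g], ?_, fun h => absurd h hq2, fun h => absurd h h2, by norm_num, fun _ => by norm_num⟩
      have hrange : (Set.range fun i => (![1, g] : Fin 2 → _) i * u c * ((![1, g] : Fin 2 → _) i)⁻¹) =
          {u c, l (-c * ((z : F) / c) ^ 2)} := by
        ext y
        constructor
        · rintro ⟨i, rfl⟩
          fin_cases i
          · left; simp
          · right; simpa using hg
        · rintro (rfl | hy)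
          · exact ⟨0, by simp⟩
          · rw [Set.mem_singleton_iff.1 hy]
            exact ⟨1, by simpa using hg⟩
      rw [hrange]
      have hmap : (Subgroup.closure {u c, l (-c * ((z : F) / c) ^ 2)}).map (dil _ hs) = ⊤ := by
        rw [MonoidHom.map_closure, Set.image_pair, dil_u, dil_l, ← htop]
        congr 1
        ext A
        have e1 : -(z : F) ^ 2 / c * c = -(z : F) ^ 2 := by field_simp
        have e2 : (-(z : F) ^ 2 / c)⁻¹ * (-c * ((z : F) / c) ^ 2) = 1 := by field_simp
        rw [e1, e2]
        constructor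
        · rintro (rfl | hA)
          · right; rfl
          · left
            rw [Set.mem_singleton_iff.1 hA]
            rfl
        · rintro (hA | hA)
          · right
            exact ext_coe hA
          · left
            exact ext_coe hA
      have h3 : (⊤ : Subgroup (SpecialLinearGroup (Fin 2) F)).map (dil _ hs) = ⊤ :=
        top_le_iff.1 (hmap.symm.le.trans (Subgroup.map_mono le_top))
      exact Subgroup.map_injective (dil_injective _ hs) (hmap.trans h3.symm)
    · -- `q = 9`: three elements
      obtain ⟨g, hg⟩ := conj_u_sq c hz0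
      obtain ⟨g', hg'⟩ := conj_l_sq c (x := 1) one_ne_zero
      refine ⟨3, ![1, g, g'], ?_, fun h => absurd h hq2, fun h => absurd h h2, by norm_num, fun _ => le_rfl⟩
      set H := Subgroup.closure (Set.range fun i => (![1, g, g'] : Fin 3 → _) i * u c * ((![1, g, g'] : Fin 3 → _) i)⁻¹)
        with hH
      have m1 : u c ∈ H := Subgroup.subset_closure ⟨0, by simp⟩
      have m2 : u (c * (z : F) ^ 2) ∈ H := Subgroup.subset_closure ⟨1, by simpa using hg⟩
      have m3 : l (-c * 1 ^ 2) ∈ H := Subgroup.subset_closure ⟨2, by simpa using hg'⟩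
      refine top_of_u (fun x => ?_) (c := -c * 1 ^ 2) (by simpa using hc) m3
      let A : AddSubgroup F :=
        { carrier := {x | u x ∈ H}
          zero_mem' := by
            change u 0 ∈ H
            rw [u_zero]
            exact one_mem H
          add_mem' := fun {x y} hx hy => by
            change u (x + y) ∈ H
            rw [u_add]
            exact mul_mem hx hy
          neg_mem' := fun {x} hx => by
            change u (-x) ∈ H
            rw [u_neg]
            exact inv_mem hx }
      have hA : A = ⊤ := by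
        have h5 : Nat.card A ∣ 9 := by
          rw [← h9, ← Nat.card_eq_fintype_card]
          exact A.card_addSubgroup_dvd_card
        have h6 : 4 ≤ Nat.card A := by
          have hi : ((z : F) ^ 2) ^ 2 = -1 := by rw [← h91]; ring
          have h11 : (1 : F) ≠ -1 := by
            intro h
            apply h2
            linear_combination h
          have e0 : (z : F) ^ 2 ≠ 0 := pow_ne_zero 2 hz0
          have e1 : (z : F) ^ 2 ≠ 1 := by
            intro h
            rw [h, one_pow] at hi
            exact h11 hi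
          have e2 : (z : F) ^ 2 ≠ -1 := by
            intro h
            rw [h] at hi
            apply h11
            rw [← hi]
            ring
          have hsub : (({0, c, -c, c * (z : F) ^ 2} : Finset F) : Set F) ⊆ (A : Set F) := by
            intro y hy
            simp only [Finset.coe_insert, Finset.coe_singleton, Set.mem_insert_iff, Set.mem_singleton_iff] at hy
            rcases hy with rfl | rfl | rfl | rfl
            · exact A.zero_mem
            · exact m1
            · exact A.neg_mem m1
            · exact m2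
          have hcard : ({0, c, -c, c * (z : F) ^ 2} : Finset F).card = 4 := by
            rw [Finset.card_insert_of_notMem, Finset.card_insert_of_notMem, Finset.card_insert_of_notMem,
              Finset.card_singleton]
            · rw [Finset.mem_singleton]
              intro h
              apply e2
              apply mul_left_cancel₀ hc
              rw [← h]
              ring
            · rw [Finset.mem_insert, Finset.mem_singleton, not_or]
              refine ⟨fun h => h11 (mul_left_cancel₀ hc (by rw [mul_one, mul_neg, mul_one]; exact h)), fun h => e1 ?_⟩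
              apply mul_left_cancel₀ hc
              rw [← h, mul_one]
            · rw [Finset.mem_insert, Finset.mem_insert, Finset.mem_singleton, not_or, not_or]
              exact ⟨hc.symm, (neg_ne_zero.2 hc).symm, (mul_ne_zero hc e0).symm⟩
          have h7 := Set.ncard_le_ncard hsub (Set.toFinite _)
          rw [Set.ncard_coe_finset, hcard] at h7
          exact h7
        have h7 : Nat.card A = 9 := by
          have h8 := Nat.le_of_dvd (by norm_num) h5
          interval_cases (Nat.card A) <;> omega
        apply AddSubgroup.eq_top_of_card_eq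
        rw [h7, Nat.card_eq_fintype_card, h9]
      have : x ∈ A := by rw [hA]; trivial
      exact this

end

end Cfsg.Agent.H110.Gs
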